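-- Team project OELL (S5993), package [CNTM] (helper61): for m < c, m < n mod c the number of
-- elliptic m-spaces is prime to r.  Generic in the isometry-stable class of subspaces:
-- fixed-point congruence, Witt transitivity of the pointwise stabilizer of the moved space
-- on the members inside the fixed space, orbit-stabilizer and Cauchy.
import Cfsg.Agent.S0750
import Cfsg.Agent.Lib.Helper14.Isom
import Cfsg.Agent.Lib.Helper55.OEll.Defs
import Cfsg.Agent.Lib.Helper23.OHyp.Cnt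
import Cfsg.Agent.Lib.Helper61.OHyp.CntIn
import Cfsg.Agent.Lib.Helper62.OHyp.CntCauchy

set_option autoImplicit false
open scoped MatrixGroups
open Matrix

namespace Cfsg.Agent.Lib.Helper61.OEll

open Cfsg.Agent.Lib.Helper23.OHyp Cfsg.Agent.Lib.Helper55.OEll Cfsg.Agent.Lib.Helper61.OHyp

universe u

section

variable {F : Type u} [Field F] {ι : Type} [Fintype ι] [DecidableEq ι]

/-- The bundled quadratic form of a nondegenerate quadratic form given as a function. -/
noncomputable def toQF (Q : (ι → F) → F) (hQ : Cfsg.Geo.IsNondegenerateQuadraticForm Q) :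
    QuadraticForm F (ι → F) where
  toFun := Q
  toFun_smul a v := by
    rw [hQ.smul, smul_eq_mul, pow_two]
  exists_companion' :=
    ⟨LinearMap.mk₂ F (QuadraticMap.polar Q) hQ.polar_bilinear.add_left
        (fun c x v => by rw [hQ.polar_bilinear.smul_left, smul_eq_mul])
        hQ.polar_bilinear.add_right
        (fun c v x => by rw [hQ.polar_bilinear.smul_right, smul_eq_mul]),
      fun x y => by
        rw [LinearMap.mk₂_apply]; unfold QuadraticMap.polar; ring⟩

omit [Fintype ι] [DecidableEq ι] in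
theorem toQF_apply (Q : (ι → F) → F) (hQ : Cfsg.Geo.IsNondegenerateQuadraticForm Q)
    (v : ι → F) : toQF Q hQ v = Q v := rfl

omit [Fintype ι] [DecidableEq ι] in
theorem toQF_nondeg (Q : (ι → F) → F) (hQ : Cfsg.Geo.IsNondegenerateQuadraticForm Q) :
    (QuadraticMap.polarBilin (toQF Q hQ)).Nondegenerate := by
  constructor
  · intro v hv
    by_contra hv0
    obtain ⟨-, ⟨y, hy⟩⟩ := hQ.nondegenerate v hv0
    exact hy (hv y)
  · intro v hv
    by_contra hv0
    obtain ⟨⟨y, hy⟩, -⟩ := hQ.nondegenerate v hv0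
    exact hy (hv y)

/-- A class of subspaces stable under the isometry group. -/
def TInv (Q : (ι → F) → F) (T : Submodule F (ι → F) → Prop) : Prop :=
  ∀ g : GL ι F, g ∈ Cfsg.isometryGroup F Q → ∀ W : Submodule F (ι → F), T W →
    T (W.map (Matrix.toLin' (g : Matrix ι ι F)))

theorem tinv_ell (Q : (ι → F) → F) (m : ℕ) :
    TInv Q (fun W => Module.finrank F ↥W = m ∧
      Cfsg.Geo.IsNondegenerateOn (QuadraticMap.polar Q) W ∧ ¬ Cfsg.Geo.IsPlusTypeOn Q W) := by
  intro g hg W hW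
  refine ⟨(finrank_map_gl g W).trans hW.1, nd_map_gl hg hW.2.1, fun hP => hW.2.2 ?_⟩
  have h1 := plus_map_gl (inv_mem hg) hP
  rw [← Submodule.map_comp, ← Matrix.toLin'_mul, ← Units.val_mul, inv_mul_cancel,
    Units.val_one, Matrix.toLin'_one, Submodule.map_id] at h1
  exact h1

/-- Fixed-point congruence for an isometry of order dividing `r` on a stable class. -/
theorem cong_gen [Fintype F] (Q : (ι → F) → F) (T : Submodule F (ι → F) → Prop)
    (hT : TInv Q T) (r : ℕ) (hr : r.Prime) (x : GL ι F) (hx : x ∈ Cfsg.isometryGroup F Q)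
    (hxr : x ^ r = 1) :
    Nat.card {W : Submodule F (ι → F) // T W} ≡
      Nat.card {W : {W : Submodule F (ι → F) // T W} // Inv (x : Matrix ι ι F) W.1} [MOD r] := by
  classical
  have hrF : Fact r.Prime := ⟨hr⟩
  have hfinS : Finite (Submodule F (ι → F)) :=
    Finite.of_injective (fun W : Submodule F (ι → F) => (W : Set (ι → F))) SetLike.coe_injective
  have hfin : Finite {W : Submodule F (ι → F) // T W} := inferInstance
  have hft : Fintype {W : Submodule F (ι → F) // T W} := Fintype.ofFinite _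
  obtain ⟨Φ, hΦ⟩ : ∃ Φ : (g : GL ι F) → g ∈ Cfsg.isometryGroup F Q →
      Function.End {W : Submodule F (ι → F) // T W},
      ∀ g hg W, (Φ g hg W).1 = W.1.map (Matrix.toLin' (g : Matrix ι ι F)) :=
    ⟨fun g hg W => ⟨W.1.map (Matrix.toLin' (g : Matrix ι ι F)), hT g hg W.1 W.2⟩,
      fun _ _ _ => rfl⟩
  have hpow : ∀ k : ℕ, (Φ x hx) ^ k = Φ (x ^ k) (pow_mem hx k) := by
    intro k
    induction k with
    | zero =>
      funext W
      apply Subtype.ext
      rw [hΦ]
      simp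
      rfl
    | succ k ih =>
      rw [pow_succ, ih]
      funext W
      apply Subtype.ext
      show (Φ (x ^ k) (pow_mem hx k) (Φ x hx W)).1 = _
      rw [hΦ, hΦ, hΦ, ← Submodule.map_comp, pow_succ, Units.val_mul, Matrix.toLin'_mul]
  have hf : (Φ x hx) ^ r ^ 1 = 1 := by
    rw [pow_one, hpow]
    funext W
    apply Subtype.ext
    rw [hΦ, hxr]
    simp
    rfl
  have key := Equiv.Perm.card_fixedPoints_modEq (f := Φ x hx) (p := r) (n := 1) hf
  rw [Fintype.card_eq_nat_card, Fintype.card_eq_nat_card] at key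
  have hcongr : Nat.card ↥(Function.fixedPoints (Φ x hx)) =
      Nat.card {W : {W : Submodule F (ι → F) // T W} // Inv (x : Matrix ι ι F) W.1} := by
    apply Nat.card_congr
    apply Equiv.subtypeEquivRight
    intro W
    show Φ x hx W = W ↔ Submodule.map (Matrix.toLin' (x : Matrix ι ι F)) W.1 ≤ W.1
    constructor
    · intro h
      have := congrArg Subtype.val h
      rw [hΦ] at this
      exact le_of_eq this
    · intro h
      apply Subtype.ext
      rw [hΦ]
      apply Submodule.eq_of_le_of_finrank_eq h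
      rw [finrank_map_gl]
  rw [hcongr] at key
  exact key

/-- The fixer of the moved space preserves the fixed space. -/
theorem fixer_keep {Q : (ι → F) → F} (hQ : Cfsg.Geo.IsNondegenerateQuadraticForm Q)
    {x : Matrix ι ι F} (hNdMov : Nd Q (movSp x)) (hPerp : Perp Q (fixSp x) (movSp x))
    (hCompl : IsCompl (fixSp x) (movSp x)) :
    ∀ g ∈ fixer Q x, ∀ v ∈ fixSp x, (g : Matrix ι ι F) *ᵥ v ∈ fixSp x := by
  rintro g ⟨hg, hgfix⟩ v hv
  have htop : (g : Matrix ι ι F) *ᵥ v ∈ fixSp x ⊔ movSp x := by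
    rw [hCompl.sup_eq_top]; exact Submodule.mem_top
  obtain ⟨a, ha, b, hb, hab⟩ := Submodule.mem_sup.mp htop
  have hb0 : b = 0 := by
    by_contra hb0
    obtain ⟨-, ⟨c, hc, hcb⟩⟩ := hNdMov b hb hb0
    apply hcb
    have h1 : QuadraticMap.polar Q ((g : Matrix ι ι F) *ᵥ v) c = 0 := by
      have h2 := polar_isom hg v c
      rw [hgfix c hc] at h2
      rw [h2]
      exact hPerp v hv c hc
    rw [← hab, hQ.polar_bilinear.add_left, hPerp a ha c hc, zero_add] at h1
    exact h1
  rw [← hab, hb0, add_zero]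
  exact ha

/-- The members of a class inside the fixed space of `x`. -/
abbrev TIn (T : Submodule F (ι → F) → Prop) (x : Matrix ι ι F) : Type u :=
  {W : {W : Submodule F (ι → F) // T W} // W.1 ≤ fixSp x}

/-- The action of the fixer on the members of a stable class inside the fixed space. -/
@[reducible] def actT (Q : (ι → F) → F) (T : Submodule F (ι → F) → Prop) (hT : TInv Q T)
    (x : Matrix ι ι F)
    (hkeep : ∀ g ∈ fixer Q x, ∀ v ∈ fixSp x, (g : Matrix ι ι F) *ᵥ v ∈ fixSp x) :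
    MulAction ↥(fixer Q x) (TIn T x) where
  smul g W := ⟨⟨W.1.1.map (Matrix.toLin' ((g : GL ι F) : Matrix ι ι F)),
      hT g.1 g.2.1 W.1.1 W.1.2⟩, by
    intro v hv
    obtain ⟨w, hw, rfl⟩ := mem_map_gl.mp hv
    exact hkeep g.1 g.2 w (W.2 hw)⟩
  one_smul W := by
    apply Subtype.ext
    apply Subtype.ext
    show W.1.1.map (Matrix.toLin' (((1 : ↥(fixer Q x)) : GL ι F) : Matrix ι ι F)) = W.1.1
    rw [Subgroup.coe_one, Units.val_one, Matrix.toLin'_one, Submodule.map_id]
  mul_smul g h W := by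
    apply Subtype.ext
    apply Subtype.ext
    show W.1.1.map (Matrix.toLin' (((g * h : ↥(fixer Q x)) : GL ι F) : Matrix ι ι F)) =
      (W.1.1.map (Matrix.toLin' ((h : GL ι F) : Matrix ι ι F))).map
        (Matrix.toLin' ((g : GL ι F) : Matrix ι ι F))
    rw [Subgroup.coe_mul, Units.val_mul, Matrix.toLin'_mul, Submodule.map_comp]

/-- Orbit-stabilizer + Cauchy: the number of members inside the fixed space is prime to `r`. -/
theorem in_gen [Fintype F] {Q : (ι → F) → F} (hQ : Cfsg.Geo.IsNondegenerateQuadraticForm Q)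
    {r : ℕ} (hr : r.Prime) {x : Matrix ι ι F} (hNdMov : Nd Q (movSp x))
    (hPerp : Perp Q (fixSp x) (movSp x)) (hCompl : IsCompl (fixSp x) (movSp x))
    (T : Submodule F (ι → F) → Prop) (hT : TInv Q T)
    (hne : ∃ W, T W ∧ W ≤ fixSp x)
    (htr : ∀ W W', T W → T W' → W ≤ fixSp x → W' ≤ fixSp x →
      ∃ g : GL ι F, g ∈ Cfsg.isometryGroup F Q ∧
        (∀ v ∈ movSp x, (g : Matrix ι ι F) *ᵥ v = v) ∧
        W.map (Matrix.toLin' (g : Matrix ι ι F)) = W')
    (hCau : ∀ g : GL ι F, g ∈ Cfsg.isometryGroup F Q →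
      (∀ v ∈ movSp x, (g : Matrix ι ι F) *ᵥ v = v) → g ^ r = 1 → g = 1) :
    ¬ r ∣ Nat.card (TIn T x) := by
  have hkeep := fixer_keep hQ hNdMov hPerp hCompl
  let _inst := actT Q T hT x hkeep
  obtain ⟨W₀, hW₀T, hW₀C⟩ := hne
  let y₀ : TIn T x := ⟨⟨W₀, hW₀T⟩, hW₀C⟩
  have htrans : MulAction.IsPretransitive ↥(fixer Q x) (TIn T x) := by
    refine ⟨fun a b => ?_⟩
    obtain ⟨g, hg, hgfix, hgmap⟩ := htr a.1.1 b.1.1 a.1.2 b.1.2 a.2 b.2
    exact ⟨⟨g, hg, hgfix⟩, Subtype.ext (Subtype.ext hgmap)⟩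
  have hdvd : Nat.card (TIn T x) ∣ Nat.card ↥(fixer Q x) := by
    rw [← MulAction.index_stabilizer_of_transitive ↥(fixer Q x) y₀]
    exact Subgroup.index_dvd_card _
  intro hrd
  have hr' : r ∣ Nat.card ↥(fixer Q x) := hrd.trans hdvd
  have : Fact r.Prime := ⟨hr⟩
  obtain ⟨g, hg⟩ := exists_prime_orderOf_dvd_card' r hr'
  have hpow : (g : GL ι F) ^ r = 1 := by
    rw [← Subgroup.coe_pow, ← hg, pow_orderOf_eq_one, Subgroup.coe_one]
  have h1 : (g : GL ι F) = 1 := hCau g.1 g.2.1 g.2.2 hpow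
  have h2 : g = 1 := Subtype.ext h1
  rw [h2, orderOf_one] at hg
  exact hr.one_lt.ne hg

/-- Witt: an isometry between two subspaces of the fixed space is induced by an isometry of the
whole space fixing the moved space pointwise. -/
theorem witt_fix [Fintype F] {Q : (ι → F) → F} (hQ : Cfsg.Geo.IsNondegenerateQuadraticForm Q)
    {x : Matrix ι ι F} (hPerp : Perp Q (fixSp x) (movSp x))
    (hCompl : IsCompl (fixSp x) (movSp x)) (W W' : Submodule F (ι → F))
    (hW : W ≤ fixSp x) (hW' : W' ≤ fixSp x) (e : W ≃ₗ[F] W')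
    (he : ∀ w : W, Q ((e w : W') : ι → F) = Q (w : ι → F)) :
    ∃ g : GL ι F, g ∈ Cfsg.isometryGroup F Q ∧
      (∀ v ∈ movSp x, (g : Matrix ι ι F) *ᵥ v = v) ∧
      W.map (Matrix.toLin' (g : Matrix ι ι F)) = W' := by
  classical
  have hdisj : ∀ U : Submodule F (ι → F), U ≤ fixSp x → ∀ (w : U) (n : movSp x),
      (w : ι → F) + (n : ι → F) = 0 → w = 0 ∧ n = 0 := by
    intro U hU w n h
    have hn : (n : ι → F) ∈ fixSp x := by
      have h1 : (n : ι → F) = -(w : ι → F) := by
        rw [eq_neg_iff_add_eq_zero, add_comm]; exact h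
      rw [h1]; exact Submodule.neg_mem _ (hU w.2)
    have hn0 : (n : ι → F) = 0 := Submodule.disjoint_def.mp hCompl.disjoint _ hn n.2
    refine ⟨Subtype.ext ?_, Subtype.ext hn0⟩
    rw [hn0, add_zero] at h
    exact h
  have hinj : ∀ U : Submodule F (ι → F), U ≤ fixSp x →
      Function.Injective (U.subtype.coprod (movSp x).subtype) := by
    intro U hU
    rw [← LinearMap.ker_eq_bot, LinearMap.ker_eq_bot']
    rintro ⟨w, n⟩ h
    have h' : (w : ι → F) + (n : ι → F) = 0 := by
      simpa [LinearMap.coprod_apply] using h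
    obtain ⟨h1, h2⟩ := hdisj U hU w n h'
    rw [h1, h2]; rfl
  have hc := hinj W hW
  have hc' := hinj W' hW'
  let E := LinearEquiv.ofInjective (W.subtype.coprod (movSp x).subtype) hc
  let E' := LinearEquiv.ofInjective (W'.subtype.coprod (movSp x).subtype) hc'
  let φ : LinearMap.range (W.subtype.coprod (movSp x).subtype) ≃ₗ[F]
      LinearMap.range (W'.subtype.coprod (movSp x).subtype) :=
    E.symm.trans ((e.prodCongr (LinearEquiv.refl F (movSp x))).trans E')
  have hE : ∀ (w : W) (n : movSp x),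
      ((E (w, n) : LinearMap.range (W.subtype.coprod (movSp x).subtype)) : ι → F) =
        (w : ι → F) + (n : ι → F) := by
    intro w n
    show (W.subtype.coprod (movSp x).subtype) (w, n) = _
    simp [LinearMap.coprod_apply]
  have hE' : ∀ (w : W') (n : movSp x),
      ((E' (w, n) : LinearMap.range (W'.subtype.coprod (movSp x).subtype)) : ι → F) =
        (w : ι → F) + (n : ι → F) := by
    intro w n
    show (W'.subtype.coprod (movSp x).subtype) (w, n) = _
    simp [LinearMap.coprod_apply]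
  have hφE : ∀ (w : W) (n : movSp x), φ (E (w, n)) = E' (e w, n) := by
    intro w n
    show E' ((e.prodCongr (LinearEquiv.refl F (movSp x))) (E.symm (E (w, n)))) = _
    rw [LinearEquiv.symm_apply_apply]
    rfl
  have hadd : ∀ a b : ι → F, Q (a + b) = Q a + Q b + QuadraticMap.polar Q a b := by
    intro a b; unfold QuadraticMap.polar; ring
  have hφ : ∀ p : LinearMap.range (W.subtype.coprod (movSp x).subtype),
      (toQF Q hQ) ((φ p : LinearMap.range (W'.subtype.coprod (movSp x).subtype)) : ι → F) =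
        (toQF Q hQ) (p : ι → F) := by
    intro p
    obtain ⟨⟨w, n⟩, rfl⟩ := E.surjective p
    rw [hφE, hE, hE', toQF_apply, toQF_apply, hadd, hadd, he w,
      hPerp _ (hW' (e w).2) _ n.2, hPerp _ (hW w.2) _ n.2]
  obtain ⟨g, hgq, hg⟩ := Cfsg.Agent.S0750.result (toQF Q hQ) (toQF_nondeg Q hQ) _ _ φ hφ
  have key : ∀ (w : W) (n : movSp x),
      g ((w : ι → F) + (n : ι → F)) = ((e w : W') : ι → F) + (n : ι → F) := by
    intro w n
    have h1 := hg (E (w, n))
    rw [hφE, hE, hE'] at h1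
    exact h1
  set A : Matrix ι ι F := LinearMap.toMatrix' (g : (ι → F) →ₗ[F] (ι → F)) with hAdef
  have hA : ∀ v, A *ᵥ v = g v := by
    intro v
    rw [← Matrix.toLin'_apply, hAdef, Matrix.toLin'_toMatrix']
    rfl
  have hAiso : ∀ v, (toQF Q hQ) (A *ᵥ v) = (toQF Q hQ) v := fun v => by
    rw [hA]; exact hgq v
  have hAunit : IsUnit A :=
    Cfsg.Agent.Lib.Helper14.isUnit_of_isometry (toQF Q hQ) (toQF_nondeg Q hQ) A hAiso
  have hval : (hAunit.unit : Matrix ι ι F) = A := IsUnit.unit_spec hAunit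
  refine ⟨hAunit.unit, ?_, ?_, ?_⟩
  · intro u _
    show Q ((hAunit.unit : Matrix ι ι F) *ᵥ u) = Q u
    rw [hval]
    exact hAiso u
  · intro v hv
    rw [hval, hA]
    have h1 := key 0 ⟨v, hv⟩
    simpa using h1
  · apply le_antisymm
    · intro v hv
      obtain ⟨w, hw, rfl⟩ := mem_map_gl.mp hv
      rw [hval, hA]
      have h1 := key ⟨w, hw⟩ 0
      simp only [Submodule.coe_zero, add_zero] at h1
      rw [h1]
      exact (e ⟨w, hw⟩).2
    · intro w' hw'
      refine mem_map_gl.mpr ⟨(e.symm ⟨w', hw'⟩ : ι → F), (e.symm ⟨w', hw'⟩).2, ?_⟩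
      rw [hval, hA]
      have h1 := key (e.symm ⟨w', hw'⟩) 0
      simp only [Submodule.coe_zero, add_zero, LinearEquiv.apply_symm_apply] at h1
      exact h1

end

/-- [CNTM] (with the type-independent OHYP sub-package [CNTCAUCHY] as a hypothesis). -/
theorem pkgCntM_of' (hSplit : PkgSplit.{u}) (hDiv : PkgDiv.{u}) (hGeom : PkgGeom.{u})
    (hExist : PkgExist.{u}) (hEllIso : PkgEllIso.{u}) (hCauchy : PkgCntCauchy.{u}) :
    PkgCntM.{u} := by
  intro F _ _ ι _ _ Q hQ h2 hodd r hr hr2 hrq m hme hm2 hmc hmk hdvd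
  obtain ⟨x, hxiso, hxr, hxlt, hxm⟩ :=
    pkgCntX_of hExist F ι Q hQ h2 hodd r hr hr2 hrq m hmc hmk
  have hrF : (r : F) ≠ 0 := natCast_ne_zero_of_not_dvd_card hr hrq
  have hpow : (x : Matrix ι ι F) ^ r = 1 := by
    rw [← Units.val_pow_eq_pow_val, hxr]; rfl
  have hS : Std Q r (x : Matrix ι ι F) := ⟨hQ, h2, hr, hr2, hrq, hrF, hpow, isom_of_mem hxiso⟩
  obtain ⟨hNdFix, hNdMov, hPerp, hCompl, -, -⟩ := hSplit F ι Q r _ hS
  have hFix := pkgCntFix_of hSplit hDiv
  have hT := tinv_ell Q m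
  have hcong := cong_gen Q _ hT r hr x hxiso hxr
  have hnin := in_gen hQ hr hNdMov hPerp hCompl _ hT
    (by
      obtain ⟨W₀, hW₀C, hW₀Nd, hW₀dim, hW₀Plus⟩ :=
        hGeom F ι Q hQ h2 (fixSp (x : Matrix ι ι F)) hNdFix m False hme (by omega)
          (fun h0 => by omega)
      exact ⟨W₀, ⟨hW₀dim, hW₀Nd, fun hP => hW₀Plus.mp hP⟩, hW₀C⟩)
    (by
      intro W W' hW hW' hWC hW'C
      obtain ⟨e, he⟩ := hEllIso F ι Q hQ h2 W W' hW.2.1 hW'.2.1 (hW.1.trans hW'.1.symm)
        (by rw [hW.1]; exact hme) hW.2.2 hW'.2.2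
      exact witt_fix hQ hPerp hCompl W W' hWC hW'C e he)
    (hCauchy F ι Q r _ hS hxlt)
  have hcard : Nat.card {W : {W : Submodule F (ι → F) // Module.finrank F ↥W = m ∧
        Cfsg.Geo.IsNondegenerateOn (QuadraticMap.polar Q) W ∧ ¬ Cfsg.Geo.IsPlusTypeOn Q W} //
        Inv (x : Matrix ι ι F) W.1} =
      Nat.card (TIn (fun W => Module.finrank F ↥W = m ∧
        Cfsg.Geo.IsNondegenerateOn (QuadraticMap.polar Q) W ∧ ¬ Cfsg.Geo.IsPlusTypeOn Q W)
        (x : Matrix ι ι F)) := by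
    apply Nat.card_congr
    apply Equiv.subtypeEquivRight
    intro W
    constructor
    · intro hinv
      exact hFix F ι Q r _ hS W.1 W.2.2.1 hinv (by rw [W.2.1]; exact hmc)
    · intro hle v hv
      obtain ⟨w, hw, rfl⟩ := mem_map_gl.mp hv
      rw [mem_fixSp.mp (hle hw)]
      exact hw
  rw [hcard] at hcong
  have h0 := Nat.mod_eq_zero_of_dvd hdvd
  have h1 : Nat.card (TIn (fun W => Module.finrank F ↥W = m ∧
        Cfsg.Geo.IsNondegenerateOn (QuadraticMap.polar Q) W ∧ ¬ Cfsg.Geo.IsPlusTypeOn Q W)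
        (x : Matrix ι ι F)) % r = 0 := by
    rw [← hcong]; exact h0
  exact hnin (Nat.dvd_of_mod_eq_zero h1)

/-- [CNTM] -/
theorem pkgCntM_of (hSplit : PkgSplit.{u}) (hDiv : PkgDiv.{u}) (hGeom : PkgGeom.{u})
    (hExist : PkgExist.{u}) (hEllIso : PkgEllIso.{u}) : PkgCntM.{u} :=
  pkgCntM_of' hSplit hDiv hGeom hExist hEllIso
    (Cfsg.Agent.Lib.Helper62.OHyp.pkgCntCauchy_of hSplit hDiv)

end Cfsg.Agent.Lib.Helper61.OEll
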